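import Mathlib
import Cfsg.Agent.Lib.Helper14.Spec.Defs

/-!
# SPEC (S2362) package [BLOCK] (helper25)

An invariant subspace without non-zero fixed vectors of an endomorphism `x` with `x ^ r = 1`
(`r` prime) over a finite field with `q` elements has dimension divisible by the order of `q`
modulo `r`: count the points of the subspace modulo `r`.
-/

set_option autoImplicit false

universe u

namespace Cfsg.Agent.Lib.Helper25.Spec

open Cfsg.Agent.Lib.Helper14.Spec

/-- package [BLOCK] -/
theorem pkgBlock : PkgBlock.{u} := by
  intro F _ _ V _ _ _ r hr hrF x hx U hxU hfix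
  classical
  haveI : Fact r.Prime := ⟨hr⟩
  haveI : Finite V := Module.finite_of_finite F
  haveI : Fintype U := Fintype.ofFinite U
  let f : Function.End U := fun u => ⟨x u, hxU u u.2⟩
  have hfpow : ∀ k : ℕ, ∀ u : U, ((f ^ k) u : V) = (x ^ k) (u : V) := by
    intro k
    induction k with
    | zero =>
      intro u
      rfl
    | succ k ih =>
      intro u
      rw [pow_succ, pow_succ]
      show (((f ^ k) (f u) : U) : V) = (x ^ k * x) (u : V)
      rw [ih (f u)]
      rfl
  have hf : f ^ r ^ 1 = 1 := by
    rw [pow_one]
    funext u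
    apply Subtype.ext
    rw [hfpow, hx]
    rfl
  have h := Equiv.Perm.card_fixedPoints_modEq (f := f) (p := r) (n := 1) hf
  have hfp : Fintype.card (Function.fixedPoints f) = 1 := by
    rw [Fintype.card_eq_one_iff]
    refine ⟨⟨0, ?_⟩, ?_⟩
    · show f 0 = 0
      apply Subtype.ext
      show x ((0 : U) : V) = ((0 : U) : V)
      simp
    · rintro ⟨u, hu⟩
      apply Subtype.ext
      have h1 : x (u : V) = (u : V) := congrArg Subtype.val hu
      exact Subtype.ext (hfix u u.2 h1)
  rw [hfp] at h
  have hcard : Fintype.card U = Fintype.card F ^ Module.finrank F U :=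
    Module.card_eq_pow_finrank
  rw [hcard] at h
  apply orderOf_dvd_of_pow_eq_one
  have h2 := (ZMod.natCast_eq_natCast_iff _ _ r).mpr h
  push_cast at h2
  exact h2

end Cfsg.Agent.Lib.Helper25.Spec
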