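import Mathlib
import Cfsg.Agent.Lib.Helper14.Spec.Defs

/-!
# SPEC (S2362) package [STRUCT] (helper25)

The structure of an isometry of order `r` in dimension `2 d + 3`, where `q` has order `2 d`
modulo `r`: from [DECOMP] and [BLOCK].
-/

set_option autoImplicit false

universe u

namespace Cfsg.Agent.Lib.Helper25.Spec

open Cfsg.Agent.Lib.Helper14.Spec

/-- package [STRUCT] -/
theorem pkgStruct : PkgStruct.{u} := by
  intro hDecomp hBlock F _ _ V _ _ _ Q hQ r d hr hrF hd hord hdim x hx hx1 hiso
  obtain ⟨W, V₁, hcompl, horth, hfixV, hfixW, hcomm, hndW, hndV⟩ :=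
    hDecomp Q hQ r x hrF hx hiso
  have hxW : ∀ w ∈ W, x w ∈ W := (hcomm x (fun v => rfl)).1
  have hsum : Module.finrank F W + Module.finrank F V₁ = 2 * d + 3 := by
    rw [← hdim]
    exact Submodule.finrank_add_eq_of_isCompl hcompl
  have hdvd := hBlock r hr hrF x hx W hxW hfixW
  rw [hord] at hdvd
  have hW0 : Module.finrank F W ≠ 0 := by
    intro h0
    apply hx1
    have hWbot : W = ⊥ := Submodule.finrank_eq_zero.mp h0
    have hVtop : V₁ = ⊤ := by
      have h1 := hcompl.sup_eq_top
      rw [hWbot, bot_sup_eq] at h1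
      exact h1
    apply LinearMap.ext
    intro v
    exact hfixV v (by rw [hVtop]; exact Submodule.mem_top)
  have hW2d : Module.finrank F W = 2 * d := by
    obtain ⟨k, hk⟩ := hdvd
    have hk1 : k ≤ 1 := by
      by_contra h
      push Not at h
      have h2 : 2 * d * 2 ≤ 2 * d * k := Nat.mul_le_mul_left _ h
      omega
    have hk0 : k ≠ 0 := by
      rintro rfl
      rw [mul_zero] at hk
      exact hW0 hk
    have hk' : k = 1 := by omega
    rw [hk, hk', mul_one]
  have hV3 : Module.finrank F V₁ = 3 := by omega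
  refine ⟨W, V₁, hxW, hcompl, horth, hfixV, hfixW, hcomm, hndW, hndV, hW2d, hV3, ?_, ?_⟩
  · have hpos : 0 < Module.finrank F W := by omega
    have hnt : Nontrivial W := (Module.finrank_pos_iff (R := F) (M := W)).mp hpos
    obtain ⟨w, hw⟩ := exists_ne (0 : W)
    exact ⟨w, hw⟩
  · intro U' hU'
    have hUW : U'.map W.subtype ≤ W := Submodule.map_subtype_le W U'
    have hxU : ∀ u ∈ U'.map W.subtype, x u ∈ U'.map W.subtype := by
      rintro _ ⟨u', hu', rfl⟩
      exact Submodule.mem_map.mpr ⟨(x.restrict hxW) u', hU' u' hu', rfl⟩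
    have hfixU : ∀ u ∈ U'.map W.subtype, x u = u → u = 0 := fun u hu => hfixW u (hUW hu)
    have hdvdU := hBlock r hr hrF x hx (U'.map W.subtype) hxU hfixU
    rw [hord, Submodule.finrank_map_subtype_eq] at hdvdU
    have hle : Module.finrank F U' ≤ Module.finrank F W := Submodule.finrank_le U'
    obtain ⟨k, hk⟩ := hdvdU
    rcases Nat.eq_zero_or_pos k with rfl | hkpos
    · left
      rw [mul_zero] at hk
      exact Submodule.finrank_eq_zero.mp hk
    · right
      apply Submodule.eq_top_of_finrank_eq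
      have h2 : 2 * d ≤ 2 * d * k := Nat.le_mul_of_pos_right _ hkpos
      omega

end Cfsg.Agent.Lib.Helper25.Spec
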